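import Cfsg.Agent.H638.G2Iso
import Cfsg.Prelude.Def_Classical

/-!
# S5745, row `O_7(3) < 2E6(2)` (helper438 for helper948), piece (C): the elements of order 5 of `M ⊵ A_9, S_6(2), G_2(3)`
are not self-centralizing
-/

set_option autoImplicit false
set_option linter.unusedSectionVars false

namespace Cfsg.Agent.H438.EPX.Resid

open Subgroup
open scoped Pointwise

section gen

variable {M : Type*} [Group M] [Finite M]

theorem isSylow {y : M} (h25 : ¬ 25 ∣ Nat.card M) (hy : orderOf y = 5) (S : Sylow 5 M) (hS : zpowers y ≤ S) :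
    (S : Subgroup M) = zpowers y := by
  have h5 : Fact (Nat.Prime 5) := ⟨Nat.prime_five⟩
  obtain ⟨n, hn⟩ := (IsPGroup.iff_card).1 S.2
  have h1 : 5 ^ n ∣ Nat.card M := by rw [← hn]; exact card_subgroup_dvd_card _
  have h2 : n ≤ 1 := by
    by_contra hc
    exact h25 ((by rw [show (25 : ℕ) = 5 ^ 2 by norm_num]; exact pow_dvd_pow 5 (by omega) : 25 ∣ 5 ^ n).trans h1)
  have h3 : Nat.card (zpowers y) = 5 := by rw [Nat.card_zpowers, hy]
  refine (Subgroup.eq_of_le_of_card_ge hS ?_).symm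
  rw [h3, hn]
  exact (Nat.pow_le_pow_right (by norm_num) h2).trans (by norm_num)

theorem conj_of (h25 : ¬ 25 ∣ Nat.card M) {y y' z' : M} (hy : orderOf y = 5) (hy' : orderOf y' = 5)
    (hc : z' * y' = y' * z') (hz : z' ∉ zpowers y') : ∃ z : M, z * y = y * z ∧ z ∉ zpowers y := by
  have h5 : Fact (Nat.Prime 5) := ⟨Nat.prime_five⟩
  have hp : ∀ {x : M}, orderOf x = 5 → IsPGroup 5 (zpowers x) := fun hx =>
    IsPGroup.of_card (n := 1) (by rw [Nat.card_zpowers, hx, pow_one])
  obtain ⟨S, hS⟩ := (hp hy).exists_le_sylow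
  obtain ⟨S', hS'⟩ := (hp hy').exists_le_sylow
  obtain ⟨g, hg⟩ := MulAction.exists_smul_eq M S' S
  have e1 := isSylow h25 hy S hS
  have e2 := isSylow h25 hy' S' hS'
  have e3 : (S : Subgroup M) = MulAut.conj g • (S' : Subgroup M) := by rw [← hg]; rfl
  rw [e1, e2] at e3
  have hyg : g⁻¹ * y * g ∈ zpowers y' := by
    have h1 : y ∈ MulAut.conj g • zpowers y' := by rw [← e3]; exact mem_zpowers y
    obtain ⟨w, hw, hwy⟩ := (Subgroup.mem_smul_pointwise_iff_exists _ _ _).1 h1
    have h2 : g * w * g⁻¹ = y := hwy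
    rw [← h2]
    have h3 : g⁻¹ * (g * w * g⁻¹) * g = w := by group
    rwa [h3]
  refine ⟨g * z' * g⁻¹, ?_, ?_⟩
  · obtain ⟨k, hk⟩ := mem_zpowers_iff.1 hyg
    have h1 : z' * y' ^ k = y' ^ k * z' := (Commute.zpow_right (show Commute z' y' from hc) k).eq
    have h2 : y = g * y' ^ k * g⁻¹ := by rw [hk]; group
    rw [h2]
    calc g * z' * g⁻¹ * (g * y' ^ k * g⁻¹) = g * (z' * y' ^ k) * g⁻¹ := by group
      _ = g * (y' ^ k * z') * g⁻¹ := by rw [h1]
      _ = _ := by group
  · intro h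
    apply hz
    have h1 : g * z' * g⁻¹ ∈ MulAut.conj g • zpowers y' := by rw [← e3]; exact h
    obtain ⟨w, hw, hwy⟩ := (Subgroup.mem_smul_pointwise_iff_exists _ _ _).1 h1
    have h2 : g * w * g⁻¹ = g * z' * g⁻¹ := hwy
    have h3 : w = z' := by simpa using h2
    rwa [← h3]

theorem not_mem_of {y z : M} (hy : orderOf y = 5) (hz : z ≠ 1) {r : ℕ} (hr : Nat.Coprime r 5) (hzr : z ^ r = 1) :
    z ∉ zpowers y := by
  intro h
  have h1 : orderOf z ∣ 5 := by
    rw [← hy]
    exact orderOf_dvd_of_mem_zpowers h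
  have h2 : orderOf z ∣ r := orderOf_dvd_of_pow_eq_one hzr
  exact hz (orderOf_eq_one_iff.1 (Nat.Coprime.eq_one_of_dvd (hr.coprime_dvd_left h2) h1))

/-- a subgroup containing an element of order 15 -/
theorem of_pair (h25 : ¬ 25 ∣ Nat.card M) {y : M} (hy : orderOf y = 5) (P : Subgroup M) {X : Type*} [Group X] (e : P ≃* X)
    {u v : X} (hu : u ≠ 1) (hu5 : u ^ 5 = 1) (hv : v ≠ 1) (hv3 : v ^ 3 = 1) (huv : v * u = u * v) :
    ∃ z : M, z * y = y * z ∧ z ∉ zpowers y := by
  have h5 : Fact (Nat.Prime 5) := ⟨Nat.prime_five⟩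
  have hu' : orderOf u = 5 := orderOf_eq_prime hu5 hu
  let f : X →* M := P.subtype.comp e.symm.toMonoidHom
  have hf : Function.Injective f := P.subtype_injective.comp e.symm.injective
  have hfu : orderOf (f u) = 5 := (orderOf_injective f hf u).trans hu'
  refine conj_of h25 (y' := f u) (z' := f v) hy hfu (by rw [← map_mul, huv, map_mul]) ?_
  exact not_mem_of hfu (fun h => hv (hf (by rw [h, map_one]))) (r := 3) (by norm_num) (by rw [← map_pow, hv3, map_one])

/-- a normal subgroup `P` of order prime to 5 and a Sylow subgroup of `P` of order 13 -/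
theorem of_thirteen (h25 : ¬ 25 ∣ Nat.card M) {y : M} (hy : orderOf y = 5) (P : Subgroup M) [P.Normal]
    (hP5 : ¬ 5 ∣ Nat.card P) (h13 : 13 ∣ Nat.card P) (h169 : ¬ 169 ∣ Nat.card P) :
    ∃ z : M, z * y = y * z ∧ z ∉ zpowers y := by
  have h5 : Fact (Nat.Prime 5) := ⟨Nat.prime_five⟩
  have h13' : Fact (Nat.Prime 13) := ⟨by norm_num⟩
  obtain ⟨D⟩ : Nonempty (Sylow 13 P) := inferInstance
  have hDc : Nat.card D = 13 := by
    obtain ⟨n, hn⟩ := (IsPGroup.iff_card).1 D.2
    have h1 : 13 ^ n ∣ Nat.card P := by rw [← hn]; exact card_subgroup_dvd_card _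
    have h2 : n ≤ 1 := by
      by_contra hc
      exact h169 ((by rw [show (169 : ℕ) = 13 ^ 2 by norm_num]; exact pow_dvd_pow 13 (by omega) : 169 ∣ 13 ^ n).trans h1)
    have h3 : n ≠ 0 := by
      rintro rfl
      have h4 := D.card_eq_multiplicity
      rw [hn, pow_zero] at h4
      have h6 : (Nat.card P).factorization 13 = 0 := by
        by_contra hc
        have := Nat.one_lt_pow hc (show 1 < 13 by norm_num)
        omega
      have h7 := (Nat.factorization_eq_zero_iff _ _).1 h6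
      rcases h7 with h7 | h7 | h7
      · exact h7 h13'.1
      · exact h7 h13
      · exact Nat.card_pos.ne' h7
    have h8 : n = 1 := by omega
    rw [hn, h8, pow_one]
  set E : Subgroup M := (D : Subgroup P).map P.subtype with hE
  have hEc : Nat.card E = 13 := by
    rw [hE, Nat.card_congr ((D : Subgroup P).equivMapOfInjective _ P.subtype_injective).toEquiv.symm]
    exact hDc
  have hfr : normalizer (E : Set M) ⊔ P = ⊤ := Sylow.normalizer_sup_eq_top D
  have h5M : 5 ∣ Nat.card M := by rw [← hy]; exact orderOf_dvd_natCard y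
  have h5N : 5 ∣ Nat.card (normalizer (E : Set M)) := by
    have h2 : Nat.card (↥(normalizer (E : Set M) ⊔ P : Subgroup M)) ∣
        Nat.card (normalizer (E : Set M)) * Nat.card P := by
      have h3 := Subgroup.card_mul_index (P.subgroupOf (normalizer (E : Set M)))
      have h4 : P.relIndex (normalizer (E : Set M) ⊔ P) = P.relIndex (normalizer (E : Set M)) :=
        Subgroup.relIndex_sup_right _ _
      have h6 : Nat.card P * P.relIndex (normalizer (E : Set M) ⊔ P) =
          Nat.card (↥(normalizer (E : Set M) ⊔ P : Subgroup M)) := by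
        have h7 := (P.subgroupOf (normalizer (E : Set M) ⊔ P)).card_mul_index
        rwa [Nat.card_congr (Subgroup.subgroupOfEquivOfLe (le_sup_right : P ≤ normalizer (E : Set M) ⊔ P)).toEquiv] at h7
      rw [← h6, h4, mul_comm]
      refine Nat.mul_dvd_mul ?_ dvd_rfl
      exact Dvd.intro_left _ h3
    rw [hfr, Nat.card_congr Subgroup.topEquiv.toEquiv] at h2
    rcases (Nat.Prime.dvd_mul Nat.prime_five).1 (h5M.trans h2) with h | h
    · exact h
    · exact absurd h hP5
  obtain ⟨y', hy'⟩ := exists_prime_orderOf_dvd_card' (G := normalizer (E : Set M)) 5 h5N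
  have hy'' : orderOf (y' : M) = 5 := by rw [Subgroup.orderOf_coe, hy']
  have hcyc : IsCyclic E := isCyclic_of_prime_card hEc
  -- `y'` centralizes `E`
  have hcomm : ∀ d ∈ E, d * (y' : M) = (y' : M) * d := by
    have h1 : orderOf (E.normalizerMonoidHom y') ∣ 5 := by
      rw [← hy']
      exact orderOf_map_dvd _ _
    have h2 : orderOf (E.normalizerMonoidHom y') ∣ 12 := by
      have h3 : Nat.card (MulAut E) = 12 := by
        rw [IsCyclic.card_mulAut, hEc, Nat.totient_prime h13'.1]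
      rw [← h3]
      exact orderOf_dvd_natCard _
    have h3 : E.normalizerMonoidHom y' = 1 :=
      orderOf_eq_one_iff.1 (Nat.Coprime.eq_one_of_dvd (show Nat.Coprime (orderOf (E.normalizerMonoidHom y')) 12 from
        Nat.Coprime.coprime_dvd_left h1 (by norm_num)) h2)
    have h4 : y' ∈ E.normalizerMonoidHom.ker := h3
    rw [Subgroup.normalizerMonoidHom_ker, Subgroup.mem_subgroupOf, Subgroup.mem_centralizer_iff] at h4
    intro d hd
    exact h4 d hd
  have hdne : ∃ d ∈ E, d ≠ 1 := by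
    have h1 : E ≠ ⊥ := by
      intro hb
      rw [hb, Subgroup.card_bot] at hEc
      omega
    obtain ⟨x, hx⟩ := Subgroup.ne_bot_iff_exists_ne_one.1 h1
    exact ⟨x.1, x.2, fun h => hx (Subtype.ext h)⟩
  obtain ⟨d, hd, hd1⟩ := hdne
  have hd13 : d ^ 13 = 1 := by
    have h1 : (⟨d, hd⟩ : E) ^ Nat.card E = 1 := pow_card_eq_one'
    rw [hEc] at h1
    exact congrArg Subtype.val h1
  exact conj_of h25 hy hy'' (hcomm d hd) (not_mem_of hy'' hd1 (r := 13) (by norm_num) hd13)

end gen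

section conc

open Matrix

abbrev Sp6 := ↥(Matrix.symplecticGroup (Fin 3) (ZMod 2))

def Um : Matrix (Fin 3 ⊕ Fin 3) (Fin 3 ⊕ Fin 3) (ZMod 2) :=
  Matrix.fromBlocks !![1, 0, 0; 0, 1, 0; 0, 0, 1] !![0, 1, 0; 1, 1, 0; 0, 0, 0] !![0, 1, 0; 1, 1, 0; 0, 0, 0]
    !![0, 1, 0; 1, 1, 0; 0, 0, 1]

def Vm : Matrix (Fin 3 ⊕ Fin 3) (Fin 3 ⊕ Fin 3) (ZMod 2) :=
  Matrix.fromBlocks !![1, 0, 0; 0, 1, 0; 0, 0, 0] !![0, 0, 0; 0, 0, 0; 0, 0, 1] !![0, 0, 0; 0, 0, 0; 0, 0, 1]
    !![1, 0, 0; 0, 1, 0; 0, 0, 1]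

def Wm : Matrix (Fin 3 ⊕ Fin 3) (Fin 3 ⊕ Fin 3) (ZMod 2) :=
  Matrix.fromBlocks !![1, 0, 0; 0, 1, 0; 0, 0, 1] !![1, 0, 0; 0, 0, 0; 0, 0, 1] !![0, 0, 0; 0, 0, 0; 0, 0, 0]
    !![1, 0, 0; 0, 1, 0; 0, 0, 1]

def U : Sp6 := ⟨Um, by rw [SymplecticGroup.mem_iff]; decide +kernel⟩
def V : Sp6 := ⟨Vm, by rw [SymplecticGroup.mem_iff]; decide +kernel⟩
def W : Sp6 := ⟨Wm, by rw [SymplecticGroup.mem_iff]; decide +kernel⟩

theorem U5 : U ^ 5 = 1 := Subtype.ext (by change Um ^ 5 = 1; decide +kernel)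
theorem V3 : V ^ 3 = 1 := Subtype.ext (by change Vm ^ 3 = 1; decide +kernel)
theorem UV : V * U = U * V := Subtype.ext (by change Vm * Um = Um * Vm; decide +kernel)

theorem U_nc : U ∉ Subgroup.center Sp6 := by
  intro h
  have h1 := Subgroup.mem_center_iff.1 h W
  have h2 : Wm * Um = Um * Wm := congrArg Subtype.val h1
  revert h2
  decide +kernel

theorem V_nc : V ∉ Subgroup.center Sp6 := by
  intro h
  have h1 := Subgroup.mem_center_iff.1 h W
  have h2 : Wm * Vm = Vm * Wm := congrArg Subtype.val h1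
  revert h2
  decide +kernel

end conc

section final

open Equiv

def up : Perm (Fin 9) := c[0, 1, 2, 3, 4]

def vp : Perm (Fin 9) := c[5, 6, 7]

def uA : ↥(alternatingGroup (Fin 9)) := ⟨up, by rw [Equiv.Perm.mem_alternatingGroup]; decide +kernel⟩

def vA : ↥(alternatingGroup (Fin 9)) := ⟨vp, by rw [Equiv.Perm.mem_alternatingGroup]; decide +kernel⟩

theorem uA5 : uA ^ 5 = 1 := Subtype.ext (by change up ^ 5 = 1; decide +kernel)

theorem vA3 : vA ^ 3 = 1 := Subtype.ext (by change vp ^ 3 = 1; decide +kernel)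

theorem uvA : vA * uA = uA * vA := Subtype.ext (by change vp * up = up * vp; decide +kernel)

theorem uA1 : uA ≠ 1 := fun h => by
  have h1 : up = 1 := congrArg Subtype.val h
  revert h1
  decide +kernel

theorem vA1 : vA ≠ 1 := fun h => by
  have h1 : vp = 1 := congrArg Subtype.val h
  revert h1
  decide +kernel

/-- **piece (C) of helper948** -/
theorem resid {M : Type} [Group M] [Finite M] (P : Subgroup M) [P.Normal] (h25 : ¬ 25 ∣ Nat.card M) (y : M)
    (hy : orderOf y = 5)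
    (hP : Nonempty (P ≃* alternatingGroup (Fin 9)) ∨ Nonempty (P ≃* Cfsg.PSp 3 (ZMod 2)) ∨
      Nonempty (P ≃* Cfsg.Lie.G2 (ZMod 3))) : ∃ z : M, z * y = y * z ∧ z ∉ Subgroup.zpowers y := by
  rcases hP with he | he | he
  · obtain ⟨e⟩ := he
    exact of_pair h25 hy P e (u := uA) (v := vA) uA1 uA5 vA1 vA3 uvA
  · obtain ⟨e⟩ := he
    refine of_pair h25 hy P e (u := (QuotientGroup.mk U : Cfsg.PSp 3 (ZMod 2))) (v := QuotientGroup.mk V) ?_ ?_ ?_ ?_ ?_
    · intro h
      exact U_nc ((QuotientGroup.eq_one_iff U).1 h)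
    · rw [← QuotientGroup.mk_pow, U5, QuotientGroup.mk_one]
    · intro h
      exact V_nc ((QuotientGroup.eq_one_iff V).1 h)
    · rw [← QuotientGroup.mk_pow, V3, QuotientGroup.mk_one]
    · rw [← QuotientGroup.mk_mul, ← QuotientGroup.mk_mul, UV]
  · obtain ⟨e⟩ := he
    have hc : Nat.card P = 4245696 := by
      have h := Cfsg.Agent.H638.G2Iso.card_G2 (F := ZMod 3)
      rw [Nat.card_zmod] at h
      rw [Nat.card_congr e.toEquiv]
      exact h.trans (by norm_num)
    exact of_thirteen h25 hy P (by rw [hc]; norm_num) (by rw [hc]; norm_num) (by rw [hc]; norm_num)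

end final

end Cfsg.Agent.H438.EPX.Resid
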