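import Cfsg.Agent.H648.Loc.E6Cent

/-!
# S5745, row `O_7(3) < 2E6(2)` (helper438 for helper948): no elements of order 26 in `2E6(2)`
-/

set_option autoImplicit false

namespace Cfsg.Agent.H438.EPX

open Cfsg.Lie

/-- **piece (B) of helper948** -/
theorem no26 {K : Type*} [Field K] [Fintype K] (hK : Fintype.card K = 4) (x t : ↥(Cfsg.Lie.twistedE6 K 2))
    (hx : orderOf x = 13) (ht : t * t = 1) (hc : t * x = x * t) : t = 1 := by
  by_contra h1
  have h2 := (Cfsg.Agent.H648.Loc.e6_cent hK hx).2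
  apply h2
  have h3 : orderOf t = 2 := orderOf_eq_prime (by rw [pow_two, ht]) h1
  let t' : Subgroup.centralizer ({x} : Set ↥(Cfsg.Lie.twistedE6 K 2)) :=
    ⟨t, by rw [Subgroup.mem_centralizer_singleton_iff]; exact hc⟩
  have h4 : orderOf t' = 2 := (Subgroup.orderOf_mk t _).trans h3
  exact (dvd_of_eq h4.symm).trans (orderOf_dvd_natCard t')

end Cfsg.Agent.H438.EPX
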